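import Cfsg.Agent.H35.Fi24T.Y5V5.RChk0

set_option autoImplicit false
set_option linter.all false

namespace Cfsg.Agent.H35

open Cfsg.Spor

theorem y5v5_rall : ∀ p, p < 1920 → y5v5_rf p = true := by
  apply allR_blocks y5v5_rf 1920 9 4 _ (by decide)
  intro k hk
  interval_cases k
  · exact y5v5_rchk_0
  · exact y5v5_rchk_1
  · exact y5v5_rchk_2
  · exact y5v5_rchk_3

theorem y5v5_circ_ok : circChk (fullW y5v5_rws y5v5_prels) y5v5_circT 0 y5v5_ccert = true := by decide +kernel
theorem y5v5_hc_ok : allR (fun c => hcChk y5v5_rsw y5v5_hc1T y5v5_hc2T c) 0 0 0 = true := by decide +kernel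
theorem y5v5_h0 : RData.aord (y5v5_rd.ent 0 1) = 0 := by decide +kernel

end Cfsg.Agent.H35
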