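import Cfsg.Agent.H35.Fi24T.Y5V5.RTab0

set_option autoImplicit false
set_option linter.all false

namespace Cfsg.Agent.H35

open Cfsg.Spor

noncomputable def y5v5_rrowT : ℕ → ℕ := (nd 1024 (nd 512 (nd 256 y5v5_rrowT_c0 y5v5_rrowT_c1) (nd 768 y5v5_rrowT_c2 y5v5_rrowT_c3)) (nd 1536 (nd 1280 y5v5_rrowT_c4 y5v5_rrowT_c5) (nd 1792 y5v5_rrowT_c6 y5v5_rrowT_c7)))

noncomputable def y5v5_circT_c0 : ℕ → List Fi24.Gen := (nd 16 (nd 8 (nd 4 (nd 2 (nd 1 (lf [.l]) (lf [.k])) (nd 3 (lf [.a]) (lf [.b]))) (nd 6 (nd 5 (lf [.g]) (lf [.j])) (nd 7 (lf [.i]) (lf [.c, .e, .c, .e])))) (nd 12 (nd 10 (nd 9 (lf [.c, .c]) (lf [.c, .f, .c, .f])) (nd 11 (lf [.c, .h, .c, .h]) (lf [.d, .f, .d, .f]))) (nd 14 (nd 13 (lf [.d, .d]) (lf [.e, .h, .e, .h])) (nd 15 (lf [.e, .e]) (lf [.f, .h, .f, .h]))))) (nd 24 (nd 20 (nd 18 (nd 17 (lf [.f, .f]) (lf [.d, .c, .d, .c, .d, .c])) (nd 19 (lf [.e, .d, .e,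 .d, .e, .d]) (lf [.h, .d, .h, .d, .h, .d]))) (nd 22 (nd 21 (lf [.h, .h]) (lf [.f, .e, .f, .e, .f, .e])) (nd 23 (lf [.f, .d, .f, .d]) (lf [.e, .c, .e, .c])))) (nd 28 (nd 26 (nd 25 (lf [.h, .c, .h, .c]) (lf [.h, .e, .h, .e])) (nd 27 (lf [.d, .e, .d, .e, .d, .e]) (lf [.f, .c, .f, .c]))) (nd 30 (nd 29 (lf [.h, .f, .h, .f]) (lf [.e, .f, .e, .f, .e, .f])) (nd 31 (lf [.c, .d, .c, .d, .c, .d]) (lf [.d, .h, .d, .h, .d, .h]))))))
noncomputable def y5v5_circT : ℕ → List Fi24.Gen := y5v5_circT_c0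
def y5v5_ccert : List (ℕ × ℕ × Bool) := [(25, 0, false), (26, 0, false), (27, 0, false), (28, 0, false), (29, 0, false), (30, 0, false), (31, 0, false), (2, 0, false), (0, 0, false), (3, 0, false), (4, 0, false), (8, 0, false), (6, 0, false), (14, 0, false), (12, 0, false), (19, 0, false), (18, 0, false), (1, 1, false), (7, 1, false), (9, 1, false), (24, 0, false), (13, 1, false), (8, 1, false), (2, 1, false), (4, 1, false), (14, 1, false), (7, 0, false), (3, 1, false), (19, 1, false), (13, 0, false), (1, 0, false), (9, 0, false)]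
def y5v5_hc1T : ℕ → List Fi24.Gen := lf []
def y5v5_hc2T : ℕ → List Fi24.Gen := lf []

noncomputable def y5v5_rd : RData Fi24.Gen := ⟨wrapRow 1920 y5v5_rrowT, 1920, 1920, fi24_gi, fi24_gof, fi24_gens, circTab 32 y5v5_circT, circTab 0 y5v5_hc1T, circTab 0 y5v5_hc2T, 1⟩
noncomputable def y5v5_rf (p : ℕ) : Bool := y5v5_rd.chk p
def y5v5_rsw : List (List Fi24.Gen) := []

end Cfsg.Agent.H35
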